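import Mathlib

/-! # S3430/S4423 piece F1: `2 n^2 ≤ 9 φ(n)^3` -/

set_option autoImplicit false

namespace Cfsg.Agent.Lib.Helper77.Feit

theorem F1_dvd_six (n : ℕ) (hn : 0 < n)
    (h : ∀ p : ℕ, p.Prime → p ∣ n → p < 5 ∧ ¬ p ^ 2 ∣ n) : n ∣ 6 := by
  rw [← Nat.factorization_prime_le_iff_dvd hn.ne' (by norm_num)]
  intro p hp
  by_cases hpn : p ∣ n
  · obtain ⟨h5, hsq⟩ := h p hp hpn
    have h1 : n.factorization p ≤ 1 := by
      by_contra hcon
      push Not at hcon
      exact hsq ((hp.pow_dvd_iff_le_factorization hn.ne').2 hcon)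
    have h6 : p ∣ 6 := by
      interval_cases p
      · exact absurd hp (by norm_num)
      · exact absurd hp (by norm_num)
      · norm_num
      · norm_num
      · exact absurd hp (by norm_num)
    exact h1.trans (hp.factorization_pos_of_dvd (by norm_num) h6)
  · rw [Nat.factorization_eq_zero_of_not_dvd hpn]
    exact Nat.zero_le _

theorem two_sq_le_totient_cube (n : ℕ) (hn : 0 < n) : 2 * n ^ 2 ≤ 9 * n.totient ^ 3 := by
  induction n using Nat.strong_induction_on with
  | _ n ih =>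
  by_cases h : ∃ p : ℕ, p.Prime ∧ p ∣ n ∧ (5 ≤ p ∨ p ^ 2 ∣ n)
  · obtain ⟨p, hp, ⟨m, rfl⟩, hcase⟩ := h
    have hm : 0 < m := Nat.pos_of_ne_zero (by rintro rfl; simp at hn)
    have hlt : m < p * m := by nlinarith [hp.two_le]
    have ihm := ih m hlt hm
    by_cases hpm : p ∣ m
    · rw [Nat.totient_mul_of_prime_of_dvd hp hpm]
      calc 2 * (p * m) ^ 2 = p ^ 2 * (2 * m ^ 2) := by ring
        _ ≤ p ^ 2 * (9 * m.totient ^ 3) := Nat.mul_le_mul_left _ ihm
        _ ≤ p ^ 3 * (9 * m.totient ^ 3) :=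
            Nat.mul_le_mul_right _ (Nat.pow_le_pow_right hp.pos (by norm_num))
        _ = 9 * (p * m.totient) ^ 3 := by ring
    · rw [Nat.totient_mul_of_prime_of_not_dvd hp hpm]
      have h5 : 5 ≤ p := by
        rcases hcase with h | h
        · exact h
        · exfalso
          apply hpm
          rw [pow_two] at h
          exact Nat.dvd_of_mul_dvd_mul_left hp.pos h
      obtain ⟨k, rfl⟩ : ∃ k, p = k + 5 := ⟨p - 5, by omega⟩
      have e : k + 5 - 1 = k + 4 := by omega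
      rw [e]
      have h3 : (k + 5) ^ 2 ≤ (k + 4) ^ 3 := by nlinarith [Nat.zero_le k, Nat.zero_le (k ^ 2), Nat.zero_le (k ^ 3)]
      calc 2 * ((k + 5) * m) ^ 2 = (k + 5) ^ 2 * (2 * m ^ 2) := by ring
        _ ≤ (k + 5) ^ 2 * (9 * m.totient ^ 3) := Nat.mul_le_mul_left _ ihm
        _ ≤ (k + 4) ^ 3 * (9 * m.totient ^ 3) := Nat.mul_le_mul_right _ h3
        _ = 9 * ((k + 4) * m.totient) ^ 3 := by ring
  · push Not at h
    have h6 : n ∣ 6 := F1_dvd_six n hn (fun p hp hpn => by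
      have := h p hp hpn
      exact ⟨this.1, this.2⟩)
    have hle : n ≤ 6 := Nat.le_of_dvd (by norm_num) h6
    interval_cases n <;> decide

end Cfsg.Agent.Lib.Helper77.Feit
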