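import Cfsg.Agent.Lib.Helper77.Feit.F1

/-! # S3430/S4423 piece F2: the inequality for `n ≥ 517` -/

set_option autoImplicit false

namespace Cfsg.Agent.Lib.Helper77.Feit

/-- `Nat.le_induction`; step: `4 (t+1)^2 ≤ 5 t^2`, cube it: `64 (t+1)^6 ≤ 125 t^6 ≤ 128 t^6`. -/
theorem pow_six_lt (t : ℕ) (ht : 40 ≤ t) : 183 * t ^ 6 < 2 ^ t := by
  induction t, ht using Nat.le_induction with
  | base => norm_num
  | succ t ht ih =>
    have h1 : 4 * (t + 1) ^ 2 ≤ 5 * t ^ 2 := by nlinarith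
    have h2 : (4 * (t + 1) ^ 2) ^ 3 ≤ (5 * t ^ 2) ^ 3 := Nat.pow_le_pow_left h1 3
    have h3 : 64 * (t + 1) ^ 6 ≤ 125 * t ^ 6 := by
      calc 64 * (t + 1) ^ 6 = (4 * (t + 1) ^ 2) ^ 3 := by ring
        _ ≤ (5 * t ^ 2) ^ 3 := h2
        _ = 125 * t ^ 6 := by ring
    rw [pow_succ 2 t]
    generalize (t + 1) ^ 6 = A at *
    generalize t ^ 6 = B at *
    generalize 2 ^ t = C at *
    omega

theorem X_sq_le_of_large (n : ℕ) (hn : 517 ≤ n) : (2 * n ^ 2 + n) ^ 2 ≤ 2 ^ n.totient := by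
  have h := two_sq_le_totient_cube n (by omega)
  set t := n.totient with ht
  have hn2 : 517 ^ 2 ≤ n ^ 2 := Nat.pow_le_pow_left hn 2
  have ht40 : 40 ≤ t := by
    by_contra hcon
    push Not at hcon
    have h39 : t ≤ 39 := by omega
    have : t ^ 3 ≤ 39 ^ 3 := Nat.pow_le_pow_left h39 3
    omega
  have h6 := pow_six_lt t ht40
  have h1 : 2 * n ^ 2 + n ≤ 3 * n ^ 2 := by nlinarith
  have h2 : (2 * n ^ 2 + n) ^ 2 ≤ (3 * n ^ 2) ^ 2 := Nat.pow_le_pow_left h1 2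
  have h3 : (2 * n ^ 2) ^ 2 ≤ (9 * t ^ 3) ^ 2 := Nat.pow_le_pow_left h 2
  have h4 : 4 * (3 * n ^ 2) ^ 2 = 9 * (2 * n ^ 2) ^ 2 := by ring
  have h5 : (9 * t ^ 3) ^ 2 = 81 * t ^ 6 := by ring
  rw [h5] at h3
  generalize (2 * n ^ 2 + n) ^ 2 = A at *
  generalize (3 * n ^ 2) ^ 2 = B at *
  generalize (2 * n ^ 2) ^ 2 = C at *
  generalize t ^ 6 = D at *
  generalize 2 ^ t = E at *
  omega

theorem F2_mid_all : ∀ n ∈ Finset.Icc 91 516, (2 * n ^ 2 + n) ^ 2 ≤ 2 ^ n.totient := by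
  decide +kernel

theorem X_sq_le_mid (n : ℕ) (h1 : 91 ≤ n) (h2 : n ≤ 516) : (2 * n ^ 2 + n) ^ 2 ≤ 2 ^ n.totient :=
  F2_mid_all n (Finset.mem_Icc.2 ⟨h1, h2⟩)

end Cfsg.Agent.Lib.Helper77.Feit
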