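import Cfsg.Agent.Lib.Helper77.Feit.Special

/-! # S4423 piece F7: the special pairs and the thirteen exceptional pairs -/

set_option autoImplicit false

namespace Cfsg.Agent.Lib.Helper77.Feit

theorem prim_special (q e : ℕ) (h : (q, e) ∈ special)
    (hexc : (q, e) ∉ [(2, 6), (2, 4), (2, 10), (2, 12), (2, 18), (3, 4), (3, 6), (5, 6), (2, 3),
      (2, 8), (2, 20), (4, 3), (4, 6)]) :
    ∃ m : ℕ, m ∣ q ^ e - 1 ∧ (∀ i : ℕ, 1 ≤ i → i < e → Nat.Coprime m (q ^ i - 1)) ∧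
      3 * e + 1 ≤ m := by
  simp only [special, List.mem_cons, Prod.mk.injEq, List.mem_nil_iff, or_false] at h
  rcases h with ⟨rfl, rfl⟩ | ⟨rfl, rfl⟩ | ⟨rfl, rfl⟩ | ⟨rfl, rfl⟩ | ⟨rfl, rfl⟩ | ⟨rfl, rfl⟩ | ⟨rfl, rfl⟩ | ⟨rfl, rfl⟩ | ⟨rfl, rfl⟩ | ⟨rfl, rfl⟩ | ⟨rfl, rfl⟩ | ⟨rfl, rfl⟩ | ⟨rfl, rfl⟩ | ⟨rfl, rfl⟩ | ⟨rfl, rfl⟩ | ⟨rfl, rfl⟩ | ⟨rfl, rfl⟩ | ⟨rfl, rfl⟩ | ⟨rfl, rfl⟩ | ⟨rfl, rfl⟩ | ⟨rfl, rfl⟩ | ⟨rfl, rfl⟩ | ⟨rfl, rfl⟩ | ⟨rfl, rfl⟩ | ⟨rfl, rfl⟩ | ⟨rfl, rfl⟩ | ⟨rfl, rfl⟩ | ⟨rfl, rfl⟩ | ⟨rfl, rfl⟩ | ⟨rfl, rfl⟩ | ⟨rfl, rfl⟩ | ⟨rfl, rfl⟩ | ⟨rfl, rfl⟩ | ⟨rfl, rfl⟩ | ⟨rfl, rfl⟩ | ⟨rfl, rfl⟩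
  · exact absurd (by simp) hexc
  · exact ⟨13, by norm_num, fun i h1 h2 => by interval_cases i <;> norm_num, by norm_num⟩
  · exact absurd (by simp) hexc
  · exact absurd (by simp) hexc
  · exact absurd (by simp) hexc
  · exact ⟨17, by norm_num, fun i h1 h2 => by interval_cases i <;> norm_num, by norm_num⟩
  · exact ⟨13, by norm_num, fun i h1 h2 => by interval_cases i <;> norm_num, by norm_num⟩
  · exact ⟨37, by norm_num, fun i h1 h2 => by interval_cases i <;> norm_num, by norm_num⟩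
  · exact ⟨31, by norm_num, fun i h1 h2 => by interval_cases i <;> norm_num, by norm_num⟩
  · exact absurd (by simp) hexc
  · exact absurd (by simp) hexc
  · exact absurd (by simp) hexc
  · exact absurd (by simp) hexc
  · exact ⟨31, by norm_num, fun i h1 h2 => by interval_cases i <;> norm_num, by norm_num⟩
  · exact ⟨43, by norm_num, fun i h1 h2 => by interval_cases i <;> norm_num, by norm_num⟩
  · exact ⟨19, by norm_num, fun i h1 h2 => by interval_cases i <;> norm_num, by norm_num⟩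
  · exact ⟨73, by norm_num, fun i h1 h2 => by interval_cases i <;> norm_num, by norm_num⟩
  · exact absurd (by simp) hexc
  · exact ⟨41, by norm_num, fun i h1 h2 => by interval_cases i <;> norm_num, by norm_num⟩
  · exact ⟨73, by norm_num, fun i h1 h2 => by interval_cases i <;> norm_num, by norm_num⟩
  · exact absurd (by simp) hexc
  · exact ⟨61, by norm_num, fun i h1 h2 => by interval_cases i <;> norm_num, by norm_num⟩
  · exact ⟨41, by norm_num, fun i h1 h2 => by interval_cases i <;> norm_num, by norm_num⟩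
  · exact absurd (by simp) hexc
  · exact ⟨73, by norm_num, fun i h1 h2 => by interval_cases i <;> norm_num, by norm_num⟩
  · exact ⟨241, by norm_num, fun i h1 h2 => by interval_cases i <;> norm_num, by norm_num⟩
  · exact ⟨43, by norm_num, fun i h1 h2 => by interval_cases i <;> norm_num, by norm_num⟩
  · exact ⟨151, by norm_num, fun i h1 h2 => by interval_cases i <;> norm_num, by norm_num⟩
  · exact ⟨257, by norm_num, fun i h1 h2 => by interval_cases i <;> norm_num, by norm_num⟩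
  · exact absurd (by simp) hexc
  · exact absurd (by simp) hexc
  · exact ⟨683, by norm_num, fun i h1 h2 => by interval_cases i <;> norm_num, by norm_num⟩
  · exact ⟨241, by norm_num, fun i h1 h2 => by interval_cases i <;> norm_num, by norm_num⟩
  · exact ⟨331, by norm_num, fun i h1 h2 => by interval_cases i <;> norm_num, by norm_num⟩
  · exact ⟨109, by norm_num, fun i h1 h2 => by interval_cases i <;> norm_num, by norm_num⟩
  · exact ⟨5419, by norm_num, fun i h1 h2 => by interval_cases i <;> norm_num, by norm_num⟩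

theorem F7_aux (m N P C D : ℕ) (hN : N = P * C) (hP : 0 < P) (hm : m ∣ N) (hCD : C ∣ D)
    (hD : Nat.Coprime m D) : m ≤ P := by
  have h1 : Nat.Coprime m C := hD.coprime_dvd_right hCD
  rw [hN] at hm
  exact Nat.le_of_dvd hP (h1.dvd_of_dvd_mul_right hm)

theorem prim_exceptional (q e : ℕ)
    (h : (q, e) ∈ [(2, 6), (2, 4), (2, 10), (2, 12), (2, 18), (3, 4), (3, 6), (5, 6), (2, 3),
      (2, 8), (2, 20), (4, 3), (4, 6)]) :
    ∀ m : ℕ, m ∣ q ^ e - 1 → (∀ i : ℕ, 1 ≤ i → i < e → Nat.Coprime m (q ^ i - 1)) →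
      m ≤ 2 * e + 1 := by
  simp only [List.mem_cons, Prod.mk.injEq, List.mem_nil_iff, or_false] at h
  rcases h with ⟨rfl, rfl⟩ | ⟨rfl, rfl⟩ | ⟨rfl, rfl⟩ | ⟨rfl, rfl⟩ | ⟨rfl, rfl⟩ | ⟨rfl, rfl⟩ | ⟨rfl, rfl⟩ | ⟨rfl, rfl⟩ | ⟨rfl, rfl⟩ | ⟨rfl, rfl⟩ | ⟨rfl, rfl⟩ | ⟨rfl, rfl⟩ | ⟨rfl, rfl⟩
  · intro m hm hc
    have := F7_aux m (2 ^ 6 - 1) 1 63 ((2 ^ 2 - 1) ^ 2 * (2 ^ 3 - 1) ^ 1) (by norm_num) (by norm_num) hm
      (by norm_num) (Nat.Coprime.mul_right (Nat.Coprime.pow_right 2 (hc 2 (by norm_num) (by norm_num)))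
        (Nat.Coprime.pow_right 1 (hc 3 (by norm_num) (by norm_num))))
    omega
  · intro m hm hc
    have := F7_aux m (2 ^ 4 - 1) 5 3 ((2 ^ 2 - 1) ^ 1 * (2 ^ 1 - 1) ^ 1) (by norm_num) (by norm_num) hm
      (by norm_num) (Nat.Coprime.mul_right (Nat.Coprime.pow_right 1 (hc 2 (by norm_num) (by norm_num)))
        (Nat.Coprime.pow_right 1 (hc 1 (by norm_num) (by norm_num))))
    omega
  · intro m hm hc
    have := F7_aux m (2 ^ 10 - 1) 11 93 ((2 ^ 2 - 1) ^ 1 * (2 ^ 5 - 1) ^ 1) (by norm_num) (by norm_num) hm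
      (by norm_num) (Nat.Coprime.mul_right (Nat.Coprime.pow_right 1 (hc 2 (by norm_num) (by norm_num)))
        (Nat.Coprime.pow_right 1 (hc 5 (by norm_num) (by norm_num))))
    omega
  · intro m hm hc
    have := F7_aux m (2 ^ 12 - 1) 13 315 ((2 ^ 6 - 1) ^ 1 * (2 ^ 4 - 1) ^ 1) (by norm_num) (by norm_num) hm
      (by norm_num) (Nat.Coprime.mul_right (Nat.Coprime.pow_right 1 (hc 6 (by norm_num) (by norm_num)))
        (Nat.Coprime.pow_right 1 (hc 4 (by norm_num) (by norm_num))))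
    omega
  · intro m hm hc
    have := F7_aux m (2 ^ 18 - 1) 19 13797 ((2 ^ 2 - 1) ^ 3 * (2 ^ 9 - 1) ^ 1) (by norm_num) (by norm_num) hm
      (by norm_num) (Nat.Coprime.mul_right (Nat.Coprime.pow_right 3 (hc 2 (by norm_num) (by norm_num)))
        (Nat.Coprime.pow_right 1 (hc 9 (by norm_num) (by norm_num))))
    omega
  · intro m hm hc
    have := F7_aux m (3 ^ 4 - 1) 5 16 ((3 ^ 2 - 1) ^ 2 * (3 ^ 1 - 1) ^ 1) (by norm_num) (by norm_num) hm
      (by norm_num) (Nat.Coprime.mul_right (Nat.Coprime.pow_right 2 (hc 2 (by norm_num) (by norm_num)))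
        (Nat.Coprime.pow_right 1 (hc 1 (by norm_num) (by norm_num))))
    omega
  · intro m hm hc
    have := F7_aux m (3 ^ 6 - 1) 7 104 ((3 ^ 2 - 1) ^ 1 * (3 ^ 3 - 1) ^ 1) (by norm_num) (by norm_num) hm
      (by norm_num) (Nat.Coprime.mul_right (Nat.Coprime.pow_right 1 (hc 2 (by norm_num) (by norm_num)))
        (Nat.Coprime.pow_right 1 (hc 3 (by norm_num) (by norm_num))))
    omega
  · intro m hm hc
    have := F7_aux m (5 ^ 6 - 1) 7 2232 ((5 ^ 2 - 1) ^ 2 * (5 ^ 3 - 1) ^ 1) (by norm_num) (by norm_num) hm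
      (by norm_num) (Nat.Coprime.mul_right (Nat.Coprime.pow_right 2 (hc 2 (by norm_num) (by norm_num)))
        (Nat.Coprime.pow_right 1 (hc 3 (by norm_num) (by norm_num))))
    omega
  · intro m hm hc
    have := F7_aux m (2 ^ 3 - 1) 7 1 ((2 ^ 1 - 1) ^ 1 * (2 ^ 1 - 1) ^ 1) (by norm_num) (by norm_num) hm
      (by norm_num) (Nat.Coprime.mul_right (Nat.Coprime.pow_right 1 (hc 1 (by norm_num) (by norm_num)))
        (Nat.Coprime.pow_right 1 (hc 1 (by norm_num) (by norm_num))))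
    omega
  · intro m hm hc
    have := F7_aux m (2 ^ 8 - 1) 17 15 ((2 ^ 4 - 1) ^ 1 * (2 ^ 1 - 1) ^ 1) (by norm_num) (by norm_num) hm
      (by norm_num) (Nat.Coprime.mul_right (Nat.Coprime.pow_right 1 (hc 4 (by norm_num) (by norm_num)))
        (Nat.Coprime.pow_right 1 (hc 1 (by norm_num) (by norm_num))))
    omega
  · intro m hm hc
    have := F7_aux m (2 ^ 20 - 1) 41 25575 ((2 ^ 4 - 1) ^ 2 * (2 ^ 10 - 1) ^ 1) (by norm_num) (by norm_num) hm
      (by norm_num) (Nat.Coprime.mul_right (Nat.Coprime.pow_right 2 (hc 4 (by norm_num) (by norm_num)))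
        (Nat.Coprime.pow_right 1 (hc 10 (by norm_num) (by norm_num))))
    omega
  · intro m hm hc
    have := F7_aux m (4 ^ 3 - 1) 7 9 ((4 ^ 1 - 1) ^ 2 * (4 ^ 1 - 1) ^ 1) (by norm_num) (by norm_num) hm
      (by norm_num) (Nat.Coprime.mul_right (Nat.Coprime.pow_right 2 (hc 1 (by norm_num) (by norm_num)))
        (Nat.Coprime.pow_right 1 (hc 1 (by norm_num) (by norm_num))))
    omega
  · intro m hm hc
    have := F7_aux m (4 ^ 6 - 1) 13 315 ((4 ^ 3 - 1) ^ 1 * (4 ^ 2 - 1) ^ 1) (by norm_num) (by norm_num) hm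
      (by norm_num) (Nat.Coprime.mul_right (Nat.Coprime.pow_right 1 (hc 3 (by norm_num) (by norm_num)))
        (Nat.Coprime.pow_right 1 (hc 2 (by norm_num) (by norm_num))))
    omega

end Cfsg.Agent.Lib.Helper77.Feit
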