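import Mathlib

/-! # S3430 piece F8: the case `n = 2` -/

set_option autoImplicit false

namespace Cfsg.Agent.Lib.Helper77.Feit

theorem feit_two (q : ℕ) (hq : 2 ≤ q) (h1 : ¬ ∃ s t : ℕ, t ≤ 1 ∧ q + 1 = 2 ^ s * 3 ^ t) :
    ∃ p : ℕ, p.Prime ∧ p ∣ q ^ 2 - 1 ∧ (∀ i : ℕ, 1 ≤ i → i < 2 → ¬ p ∣ q ^ i - 1) ∧
      (2 + 1 < p ∨ p ^ 2 ∣ q ^ 2 - 1) := by
  have hfac : q ^ 2 - 1 = (q + 1) * (q - 1) := by
    have := Nat.sq_sub_sq q 1
    simpa using this
  have hkey : ∀ p : ℕ, 3 ≤ p → p ∣ q + 1 → ∀ i : ℕ, 1 ≤ i → i < 2 → ¬ p ∣ q ^ i - 1 := by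
    intro p hp hpq i hi1 hi2 hd
    obtain rfl : i = 1 := by omega
    rw [pow_one] at hd
    have h2 : p ∣ (q + 1) - (q - 1) := Nat.dvd_sub hpq hd
    have h3 : (q + 1) - (q - 1) = 2 := by omega
    rw [h3] at h2
    have := Nat.le_of_dvd (by norm_num) h2
    omega
  by_cases hA : ∃ p : ℕ, p.Prime ∧ 5 ≤ p ∧ p ∣ q + 1
  · obtain ⟨p, hp, hp5, hpq⟩ := hA
    exact ⟨p, hp, by rw [hfac]; exact Dvd.dvd.mul_right hpq _, hkey p (by omega) hpq, Or.inl (by omega)⟩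
  · push Not at hA
    obtain ⟨s, n1, hn1, hs⟩ := Nat.exists_eq_pow_mul_and_not_dvd (n := q + 1) (by omega) 2 (by norm_num)
    have hn10 : n1 ≠ 0 := by rintro rfl; simp at hn1
    obtain ⟨t, c, hc, ht⟩ := Nat.exists_eq_pow_mul_and_not_dvd (n := n1) hn10 3 (by norm_num)
    have hc1 : c = 1 := by
      by_contra hne
      have hr : c.minFac.Prime := Nat.minFac_prime hne
      have hrc : c.minFac ∣ c := Nat.minFac_dvd c
      have hcn1 : c ∣ n1 := by rw [ht]; exact Dvd.intro_left _ rfl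
      have hrq : c.minFac ∣ q + 1 := by
        rw [hs]; exact (hrc.trans hcn1).mul_left _
      have hlt : c.minFac < 5 := by
        by_contra hge
        exact hA _ hr (by omega) hrq
      have h2le := hr.two_le
      obtain ⟨r, hrdef⟩ : ∃ r, r = c.minFac := ⟨_, rfl⟩
      rw [← hrdef] at hr hrc hlt h2le
      interval_cases r
      · exact hn1 (hrc.trans hcn1)
      · exact hc hrc
      · exact absurd hr (by norm_num)
    rw [hc1, mul_one] at ht
    rw [ht] at hs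
    have ht2 : 2 ≤ t := by
      by_contra hlt
      exact h1 ⟨s, t, by omega, hs⟩
    have h9 : 3 ^ 2 ∣ q + 1 := by
      rw [hs]
      exact (pow_dvd_pow 3 ht2).mul_left _
    have h3 : 3 ∣ q + 1 := (dvd_pow_self 3 (by norm_num)).trans h9
    exact ⟨3, Nat.prime_three, by rw [hfac]; exact Dvd.dvd.mul_right h3 _, hkey 3 le_rfl h3,
      Or.inr (by rw [hfac]; exact Dvd.dvd.mul_right h9 _)⟩

end Cfsg.Agent.Lib.Helper77.Feit
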