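import Mathlib

/-! # S3430/S4423: the list of small pairs treated by hand -/

set_option autoImplicit false

namespace Cfsg.Agent.Lib.Helper77.Feit

/-- the pairs `(a, n)` for which the analytic bounds do not give `2 n^2 + n < Φ_n(a)`. -/
def special : List (ℕ × ℕ) :=
  [(2, 3), (3, 3), (4, 3), (2, 4), (3, 4), (4, 4), (5, 4), (6, 4), (2, 5), (2, 6), (3, 6), (4, 6),
   (5, 6), (6, 6), (7, 6), (8, 6), (9, 6), (2, 8), (3, 8), (2, 9), (2, 10), (3, 10), (4, 10),
   (2, 12), (3, 12), (4, 12), (2, 14), (2, 15), (2, 16), (2, 18), (2, 20), (2, 22), (2, 24),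
   (2, 30), (2, 36), (2, 42)]

end Cfsg.Agent.Lib.Helper77.Feit
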